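/-
Checks for the unitary subgroup of the second Conway group.
-/
import Cfsg.Agent.Lib.LeechP.Fam.SimpM
import Cfsg.Agent.Lib.KnownSimple.LabSU
import Cfsg.Agent.Lib.KnownSimple.LabKit
import Cfsg.Agent.Lib.U62M.Data

set_option autoImplicit false
set_option maxRecDepth 100000

namespace Cfsg.Agent.Lib.U62M

open Cfsg Cfsg.Agent.Lib.LeechP Cfsg.Agent.Lib.Golay Cfsg.Agent.Lib.Golay.Leech Cfsg.Agent.Lib.LeechX Cfsg.Agent.Lib.M24
open Cfsg.Agent.Lib.KnownSimple.LabField Cfsg.Agent.Lib.KnownSimple.LabVec Cfsg.Agent.Lib.KnownSimple.LabSU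
open Cfsg.Agent.Lib.KnownSimple.LabMat
open Cfsg.Agent.Lib.KnownSimple.Lab (allI of_allI)

/-- A field of a packed table. -/
def gt (T w i : ℕ) : ℕ := Nat.shiftRight T (w * i) % 2 ^ w

/-- The field automorphism. -/
def fr4 (c : ℕ) : ℕ := mul4 c c

/-- The tables of the generators. -/
def TQl : List ℕ := [TQ0, TQ1, TQ2, TQ3, TQ4, TQ5]

/-- The rows of the generators. -/
def KRl : List (List Row) := [KR0, KR1, KR2, KR3, KR4, KR5]

/-- A generator on a vector. -/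
def tq (m y : ℕ) : ℕ := gt (TQl.getD m 0) 10 y

/-- A coefficient. -/
def cf (a y i j : ℕ) : ℕ := gt CF 2 ((a * 891 + y) * 9 + i * 3 + j)

/-- A vector. -/
def Xc (y : ℕ) : ℕ := gt XP 384 y

/-- A vector of a plane. -/
def VSc (y i : ℕ) : List ℕ := dgC 4 6 (gt VT 12 (y * 3 + i))

/-- The rows of a generator. -/
def rws (m : ℕ) : List Row := KRl.getD m []

/-- A linear combination of codes. -/
def comb (c0 c1 c2 : ℕ) (u0 u1 u2 : List ℕ) : List ℕ :=
  (List.range 6).map fun i => add4 (add4 (mul4 c0 (u0.getD i 0)) (mul4 c1 (u1.getD i 0))) (mul4 c2 (u2.getD i 0))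

/-- The check of a vector. -/
noncomputable def chkX (y : ℕ) : Bool := latOK (Xc y) && decide (sqNorm (dec (Xc y)) ≤ 256)

theorem c_X : allI chkX 0 891 = true := by decide +kernel

theorem gZ_fv : FV gZS gZR gZF := fv_of (by decide +kernel) (by decide +kernel) (by decide +kernel)

/-- The fixed vectors. -/
def cKL : List ℕ := [gVS, gZS]

/-- The generators. -/
def cKGm : List Mv := KRl.map Mv.mat

theorem cK_sys : sysChk cKL cKGm [] = true := by decide +kernel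

/-- The check of a generator. -/
noncomputable def chkT (m y : ℕ) : Bool := Nat.blt (tq m y) 891 && Nat.beq (evalM (rws m) (Xc y)) (Xc (tq m y))

theorem c_T : ∀ m < 6, allI (chkT m) 0 891 = true := by decide +kernel

/-- The check of a letter on the planes. -/
def chkL (a y : ℕ) : Bool :=
  allI (fun i => decide (mulVC add4 mul4 6 (Ls.getD a []) (VSc y i) =
    comb (cf a y i 0) (cf a y i 1) (cf a y i 2) (VSc (tq a y) 0) (VSc (tq a y) 1) (VSc (tq a y) 2))) 0 3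

theorem c_L : ∀ a < 6, allI (chkL a) 0 891 = true := by decide +kernel

theorem c_i0 : i0 < 3 := by decide +kernel

theorem c_bd : (∀ a < 4, ∀ b < 4, add4 a b < 4 ∧ mul4 a b < 4) ∧
    (∀ j < 6, (mulVC add4 mul4 6 (Ls.getD 0 []) (VSc y0 i0)).getD j 0 < 4 ∧ (VSc y0 0).getD j 0 < 4 ∧
      (VSc y0 1).getD j 0 < 4 ∧ (VSc y0 2).getD j 0 < 4) := by
  decide +kernel

theorem c_y0 : y0 < 891 ∧ ∀ y < 891, Xc y = Xc y0 → y = y0 := by decide +kernel

/-! The letters generate. -/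

theorem c_RL : ∀ p ∈ RL, uvOK add4 mul4 fr4 6 p.1 p.2 = true := by decide +kernel

theorem c_Ls : rootL add4 mul4 fr4 6 RL = Ls := by decide +kernel

/-- The isotropic vectors. -/
def ptI (i : ℕ) : List ℕ := dgC 4 6 (gt PT 12 i)

/-- The tree. -/
def prI (j : ℕ) : ℕ := gt PR 12 j

/-- The tree. -/
def gnI (j : ℕ) : ℕ := gt GN 3 j

/-- The positions. -/
def posI (c : ℕ) : ℕ := gt POS 12 c

/-- A word for the base root element. -/
def W0 : List ℕ := [0]

theorem c_w0 : (∀ a ∈ W0, a < 6) ∧ wordC add4 mul4 6 Ls W0 = rootC add4 mul4 fr4 6 (ptI 0) 1 := by decide +kernel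

theorem c_uv : uvOK add4 mul4 fr4 6 (ptI 0) 1 = true := by decide +kernel

theorem c_treeC : allI (fun j => Nat.blt (prI j) j && Nat.blt (gnI j) 6 &&
    (mulVC add4 mul4 6 (Ls.getD (gnI j) []) (ptI (prI j)) == ptI j)) 1 2078 = true := by decide +kernel

theorem c_tree : ∀ j, 0 < j → j < 2079 → prI j < j ∧ gnI j < 6 ∧
    mulVC add4 mul4 6 (Ls.getD (gnI j) []) (ptI (prI j)) = ptI j := by
  intro j h0 hj
  have h1 := of_allI c_treeC j (by omega) (by omega)
  simp only [Bool.and_eq_true, Nat.blt_eq, beq_iff_eq] at h1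
  exact ⟨h1.1.1, h1.1.2, h1.2⟩

theorem c_covC : allI (fun c => Nat.blt (hermC add4 mul4 fr4 6 (dgC 4 6 c) (dgC 4 6 c)) 4 &&
    (!(Nat.beq (hermC add4 mul4 fr4 6 (dgC 4 6 c) (dgC 4 6 c)) 0) || Nat.beq c 0 ||
      (Nat.blt (posI c) 2079 && (ptI (posI c) == dgC 4 6 c)))) 0 4096 = true := by decide +kernel

theorem c_cov : ∀ c < 4 ^ 6, hermC add4 mul4 fr4 6 (dgC 4 6 c) (dgC 4 6 c) < 4 ∧
    (Nat.beq (hermC add4 mul4 fr4 6 (dgC 4 6 c) (dgC 4 6 c)) 0 = true →
      c = 0 ∨ (posI c < 2079 ∧ ptI (posI c) = dgC 4 6 c)) := by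
  intro c hc
  have h1 := of_allI c_covC c (Nat.zero_le _) (by simpa using hc)
  simp only [Bool.and_eq_true, Nat.blt_eq, Bool.or_eq_true, Bool.not_eq_true', beq_iff_eq, Nat.beq_eq] at h1
  refine ⟨h1.1, ?_⟩
  intro h2
  rw [Nat.beq_eq] at h2
  rcases h1.2 with (h3 | h3) | h3
  · rw [h2] at h3
    exact absurd h3 (by simp)
  · exact Or.inl h3
  · exact Or.inr h3

theorem c_s : ∀ c < 4, add4 c (fr4 c) < 4 ∧ (Nat.beq (add4 c (fr4 c)) 0 = true →
    c = 0 ∨ c = 1 ∨ c = fr4 1) := by decide +kernel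

theorem letters_closure {F : Type*} [Field F] [Fintype F] (hF' : Fintype.card F = 2 ^ 2) (R : Rep F 4 add4 mul4) :
    ∃ γ : ℕ → Cfsg.SU 6 F 2, (∀ a < 6, suHom 6 F 2 (γ a) = toM R.φ 6 (Ls.getD a [])) ∧
      Subgroup.closure (γ '' {a | a < 6}) = ⊤ := by
  have hfr : ∀ c, R.φ (fr4 c) = R.φ c ^ 2 := by
    intro c
    simp only [fr4, R.hmul]
    ring
  have hγ : ∀ a < 6, suHom 6 F 2 (tvI hF' R.φ RL a) = toM R.φ 6 (Ls.getD a []) := by
    intro a ha
    have h := tvI_val (n := 6) R hfr hF' c_RL a ha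
    rw [c_Ls] at h
    exact h
  exact ⟨tvI hF' R.φ RL, hγ, su_closure R hF' hfr (by norm_num) (by norm_num) hγ 1 2079 ptI prI gnI posI (by norm_num)
    W0 c_w0.1 c_w0.2 c_uv c_tree c_cov c_s⟩

end Cfsg.Agent.Lib.U62M
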