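/-
A separation check for the unitary subgroup of the second Conway group.
-/
import Cfsg.Agent.Lib.U62M.Chk

set_option autoImplicit false
set_option maxRecDepth 100000

namespace Cfsg.Agent.Lib.U62M

open Cfsg.Agent.Lib.KnownSimple.LabField Cfsg.Agent.Lib.KnownSimple.LabVec Cfsg.Agent.Lib.KnownSimple.LabSU
open Cfsg.Agent.Lib.KnownSimple.LabMat

set_option synthInstance.maxSize 100000 in
set_option synthInstance.maxHeartbeats 0 in
theorem c_sep : ∀ la < 4, la ≠ 0 → ∀ ca < 4, ∀ cb < 4, ∀ cc < 4, ¬ (∀ j < 6,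
    mul4 la ((mulVC add4 mul4 6 (Ls.getD 0 []) (VSc y0 i0)).getD j 0) =
      add4 (add4 (mul4 ca ((VSc y0 0).getD j 0)) (mul4 cb ((VSc y0 1).getD j 0))) (mul4 cc ((VSc y0 2).getD j 0))) := by
  decide +kernel

end Cfsg.Agent.Lib.U62M
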