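/-
The joint stabiliser of two minimal vectors of inner product minus sixteen is the unitary group.
-/
import Cfsg.Agent.Lib.U62M.Sep
import Cfsg.Agent.Lib.U43M.Abs
import Cfsg.Agent.Lib.Classical.PSUSimple

set_option autoImplicit false
set_option maxRecDepth 100000

namespace Cfsg.Agent.Lib.U62M

open Cfsg Cfsg.Agent.Lib.LeechP Cfsg.Agent.Lib.Golay Cfsg.Agent.Lib.Golay.Leech Cfsg.Agent.Lib.LeechX Cfsg.Agent.Lib.M24
open Cfsg.Agent.Lib.KnownSimple.LabField Cfsg.Agent.Lib.KnownSimple.LabVec Cfsg.Agent.Lib.KnownSimple.LabSU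
open Cfsg.Agent.Lib.KnownSimple.LabMat
open Cfsg.Agent.Lib.KnownSimple.Lab (allI of_allI)
open Matrix MulAction

/-- A vector of the lattice. -/
noncomputable def Xv (y : ℕ) : ↥leechLattice :=
  open _root_.Classical in if h : dec (Xc y) ∈ leechLattice then ⟨dec (Xc y), h⟩ else 0

lemma chkX_spec {y : ℕ} (hy : y < 891) :
    Val (Xc y) ∧ dec (Xc y) ∈ leechLattice ∧ sqNorm (dec (Xc y)) ≤ 256 := by
  have h : chkX y = true := of_allI c_X y (by omega) (by omega)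
  simp only [chkX, Bool.and_eq_true, decide_eq_true_eq] at h
  have h2 := lat_of_latOK h.1
  exact ⟨h2.1, h2.2, h.2⟩

lemma Xv_coe {y : ℕ} (hy : y < 891) : (Xv y).1 = dec (Xc y) := by
  unfold Xv
  rw [dif_pos (chkX_spec hy).2.1]

lemma rws_mem {m : ℕ} (hm : m < 6) : Mv.mat (rws m) ∈ cKGm := by
  have h : m < KRl.length := hm
  have e : rws m = KRl[m] := List.getD_eq_getElem _ _ h
  rw [e]
  exact List.mem_map_of_mem (List.getElem_mem h)

lemma rws_mat {m : ℕ} (hm : m < 6) : MatOK (Fx cKL) (rws m) := by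
  have hS := cK_sys
  simp only [sysChk, Bool.and_eq_true] at hS
  obtain ⟨⟨h1, h2⟩, _⟩ := hS
  have hL := goodL_of _ h1
  exact mvOK_of_chk hL (allL_spec h2 (Mv.mat (rws m)) (rws_mem hm))

lemma gen_act {m : ℕ} (hm : m < 6) : ∃ g ∈ Fx cKL, ∀ y < 891, tq m y < 891 ∧ g • Xv y = Xv (tq m y) := by
  obtain ⟨hr, g, hg, hc⟩ := rws_mat hm
  refine ⟨g, hg, fun y hy => ?_⟩
  have hchk : chkT m y = true := of_allI (c_T m hm) y (by omega) (by omega)
  simp only [chkT, Bool.and_eq_true] at hchk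
  have h1 : tq m y < 891 := blt_sound hchk.1
  have h2 : evalM (rws m) (Xc y) = Xc (tq m y) := Nat.eq_of_beq_eq_true hchk.2
  refine ⟨h1, ?_⟩
  obtain ⟨hv, hd, hb⟩ := chkX_spec hy
  have h3 := (evalM_spec hr hc hv hd hb).2
  rw [h2] at h3
  apply Subtype.ext
  rw [Xv_coe h1, h3]
  have h4 : Xv y = ⟨dec (Xc y), hd⟩ := Subtype.ext (Xv_coe hy)
  rw [h4]
  rfl

lemma toV_comb {F : Type*} [Field F] (R : Rep F 4 add4 mul4) (c0 c1 c2 : ℕ) (u0 u1 u2 : List ℕ) :
    toV R.φ 6 (comb c0 c1 c2 u0 u1 u2) = R.φ c0 • toV R.φ 6 u0 + R.φ c1 • toV R.φ 6 u1 + R.φ c2 • toV R.φ 6 u2 := by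
  ext i
  simp only [toV, comb, Pi.add_apply, Pi.smul_apply, smul_eq_mul]
  rw [getD_range_map' _ i.2, R.hadd, R.hadd, R.hmul, R.hmul, R.hmul]

lemma mulVec_diag_aux {F : Type*} [Field F] (lam : F) (v : Fin 6 → F) :
    Matrix.diagonal (fun _ : Fin 6 => lam) *ᵥ v = lam • v := by
  ext i
  simp [Matrix.mulVec_diagonal]

section

variable {F : Type*} [Field F] [Fintype F] (R : Rep F 4 add4 mul4)

/-- The relation. -/
def Rel (s : Cfsg.SU 6 F 2) (k : ↥(Fx cKL)) : Prop :=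
  ∀ y < 891, ∃ y' < 891, k.1 • Xv y = Xv y' ∧ ∀ i < 3, ∃ a b c : F,
    suHom 6 F 2 s *ᵥ toV R.φ 6 (VSc y i) =
      a • toV R.φ 6 (VSc y' 0) + b • toV R.φ 6 (VSc y' 1) + c • toV R.φ 6 (VSc y' 2)

omit [Fintype F] in
lemma letter_pl {a y i : ℕ} (ha : a < 6) (hy : y < 891) (hi : i < 3) (A : Matrix (Fin 6) (Fin 6) F)
    (hA : A = toM R.φ 6 (Ls.getD a [])) :
    A *ᵥ toV R.φ 6 (VSc y i) = R.φ (cf a y i 0) • toV R.φ 6 (VSc (tq a y) 0) +
      R.φ (cf a y i 1) • toV R.φ 6 (VSc (tq a y) 1) + R.φ (cf a y i 2) • toV R.φ 6 (VSc (tq a y) 2) := by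
  have h : chkL a y = true := of_allI (c_L a ha) y (by omega) (by omega)
  have h2 := of_allI h i (by omega) (by omega)
  simp only [decide_eq_true_eq] at h2
  subst hA
  rw [← toV_mulVC R.hadd R.hmul R.h0, h2, toV_comb]

end

/-- The second base vector. -/
abbrev bZ : ↥leechLattice := bv gZ_fv

theorem bZ_norm : sqNorm bZ.1 = 32 := by
  show sqNorm (dec gZS) = 32
  decide +kernel

theorem bVZ_dot : dotInt bV.1 bZ.1 = -16 := by
  show dotInt (dec gVS) (dec gZS) = -16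
  decide +kernel

theorem mem_K_iff {g : ↥Co0} : g ∈ Fx cKL ↔ g ∈ stb bV ⊓ stb bZ := by
  constructor
  · intro h
    have h1 : g • bV = bV := fx_bv h gV_fv (by simp [cKL])
    have h2 : g • bZ = bZ := fx_bv h gZ_fv (by simp [cKL])
    exact ⟨h1, h2⟩
  · rintro ⟨h1, h2⟩ m hm hd
    simp only [cKL, List.mem_cons, List.not_mem_nil, or_false] at hm
    rcases hm with rfl | rfl
    · exact h1
    · exact h2

theorem orbit_Z : orbit ↥(stb bV) bZ = S1 bV (-16) := by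
  apply orbit_eq_of (S := S1 bV (-16)) (y := bZ) (mem_S1.2 ⟨bZ_norm, bVZ_dot⟩)
  · intro h hh z hz
    exact (S1_smul h hh (-16) z).1 hz
  · intro z hz
    obtain ⟨g, h1, h2⟩ := co2_trans_a bV bZ z bV_norm bZ_norm hz.1 bVZ_dot hz.2
    exact ⟨g, h1, h2⟩

theorem card_K0 : Nat.card ↥(stb bV ⊓ stb bZ) = 9196830720 := by
  have h1 := card_inf_stb (stb bV) bZ
  rw [card_stb_min bV bV_norm, orbit_Z, ncard_S1, (census bV.1 bV.2 bV_norm).1] at h1
  have e : (9196830720 : ℕ) * 4600 = 42305421312000 := by norm_num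
  exact Nat.eq_of_mul_eq_mul_right (by norm_num) (h1.trans e.symm)

theorem card_K : Nat.card ↥(Fx cKL) = 9196830720 := by
  have h3 : stb bV ⊓ stb bZ = Fx cKL := by
    ext g
    exact mem_K_iff.symm
  rw [← h3]
  exact card_K0

/-- The standard case. -/
theorem iso_std {F : Type*} [Field F] [Fintype F] (hF : Fintype.card F = 4) : Nonempty (↥(Fx cKL) ≃* Cfsg.PSU 6 F 2) := by
  classical
  have hF' : Fintype.card F = 2 ^ 2 := by rw [hF]; norm_num
  obtain ⟨R⟩ := exists_rep4 hF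
  obtain ⟨γ, hγ, hclo⟩ := letters_closure hF' R
  have hcK : Nat.card ↥(Fx cKL) = 9196830720 := card_K
  have hcP : Nat.card (Cfsg.PSU 6 F 2) = 9196830720 := by
    have h1 := card_psu (n := 6) hF' (by norm_num)
    have h2 : ∏ i ∈ Finset.range 6, (if Even i then 2 ^ (i + 1) + 1 else 2 ^ (i + 1) - 1) = 2525985 := by decide
    rw [h2] at h1
    rw [show Nat.gcd 6 (2 + 1) = 3 by decide, show (2 : ℕ) ^ (6 * (6 - 1) / 2) * 2525985 = 82771476480 by norm_num] at h1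
    omega
  have hfK : Finite ↥(Fx cKL) := Nat.finite_of_card_ne_zero (by rw [hcK]; norm_num)
  have hfS : Finite (Cfsg.SU 6 F 2) := inferInstance
  have hlet : ∀ a : ℕ, ∃ g : ↥(Fx cKL), a < 6 → ∀ y < 891, tq a y < 891 ∧ g.1 • Xv y = Xv (tq a y) := by
    intro a
    by_cases ha : a < 6
    · obtain ⟨g, hg, h⟩ := gen_act ha
      exact ⟨⟨g, hg⟩, fun _ => h⟩
    · exact ⟨1, fun h => absurd h ha⟩
  choose Γ hΓ using hlet
  let π : Cfsg.SU 6 F 2 →* Cfsg.PSU 6 F 2 := QuotientGroup.mk' _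
  have hπ : Function.Surjective π := QuotientGroup.mk'_surjective _
  refine Cfsg.Agent.Lib.J2U.iso_of_simple π hπ (Cfsg.Agent.Lib.Classical.psu_simple hF' (by norm_num) (by norm_num))
    (hcK.trans hcP.symm) γ Γ 6 hclo (Rel R) ?_ ?_ (γ 0) ?_
  · intro y hy
    refine ⟨y, hy, one_smul _ _, ?_⟩
    intro i hi
    rw [map_one, Matrix.one_mulVec]
    have hi' : i = 0 ∨ i = 1 ∨ i = 2 := by omega
    rcases hi' with rfl | rfl | rfl
    · exact ⟨1, 0, 0, by simp⟩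
    · exact ⟨0, 1, 0, by simp⟩
    · exact ⟨0, 0, 1, by simp⟩
  · intro a ha s k hR y hy
    obtain ⟨y', hy', e, hc⟩ := hR y hy
    obtain ⟨q1, q2⟩ := hΓ a ha y' hy'
    refine ⟨tq a y', q1, ?_, ?_⟩
    · show ((Γ a).1 * k.1) • Xv y = _
      rw [mul_smul, e, q2]
    · intro i hi
      obtain ⟨c1, c2, c3, e1⟩ := hc i hi
      have l0 := letter_pl R (i := 0) ha hy' (by norm_num) _ (hγ a ha)
      have l1 := letter_pl R (i := 1) ha hy' (by norm_num) _ (hγ a ha)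
      have l2 := letter_pl R (i := 2) ha hy' (by norm_num) _ (hγ a ha)
      refine ⟨c1 * R.φ (cf a y' 0 0) + c2 * R.φ (cf a y' 1 0) + c3 * R.φ (cf a y' 2 0),
        c1 * R.φ (cf a y' 0 1) + c2 * R.φ (cf a y' 1 1) + c3 * R.φ (cf a y' 2 1),
        c1 * R.φ (cf a y' 0 2) + c2 * R.φ (cf a y' 1 2) + c3 * R.φ (cf a y' 2 2), ?_⟩
      rw [map_mul, ← Matrix.mulVec_mulVec, e1, Matrix.mulVec_add, Matrix.mulVec_add, Matrix.mulVec_smul,
        Matrix.mulVec_smul, Matrix.mulVec_smul, l0, l1, l2]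
      module
  · intro s hR he
    have hz : (γ 0)⁻¹ * s ∈ Subgroup.center (Cfsg.SU 6 F 2) := QuotientGroup.eq.1 he.symm
    obtain ⟨lam, hlam⟩ := Cfsg.Agent.Lib.Classical.su_center_scalar hF' (by norm_num) ⟨_, hz⟩
    have hdet : Matrix.det (((γ 0)⁻¹ * s).1.1 : Matrix (Fin 6) (Fin 6) F) = 1 := ((γ 0)⁻¹ * s).1.2
    have hlam' : (((γ 0)⁻¹ * s).1.1 : Matrix (Fin 6) (Fin 6) F) = Matrix.diagonal (fun _ => lam) := hlam
    have hl0 : lam ≠ 0 := by
      rintro rfl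
      rw [hlam', Matrix.det_diagonal] at hdet
      simp at hdet
    have hs : suHom 6 F 2 s = suHom 6 F 2 (γ 0) * Matrix.diagonal (fun _ => lam) := by
      have h1 : s = γ 0 * ((γ 0)⁻¹ * s) := by group
      conv_lhs => rw [h1]
      rw [map_mul]
      congr 1
    obtain ⟨y', hy', e, hc⟩ := hR y0 c_y0.1
    have hyy : y' = y0 := by
      have h1 : Xv y0 = Xv y' := e
      have h2 : dec (Xc y0) = dec (Xc y') := by
        rw [← Xv_coe c_y0.1, ← Xv_coe hy', h1]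
      have h3 := dec_inj (chkX_spec c_y0.1).1 (chkX_spec hy').1 h2
      exact c_y0.2 y' hy' h3.symm
    subst hyy
    obtain ⟨c1, c2, c3, e1⟩ := hc i0 c_i0
    rw [hs, ← Matrix.mulVec_mulVec, mulVec_diag_aux lam, Matrix.mulVec_smul, hγ 0 (by norm_num),
      ← toV_mulVC R.hadd R.hmul R.h0] at e1
    obtain ⟨la, hla, rfl⟩ := R.hsurj lam
    obtain ⟨ca, hca, rfl⟩ := R.hsurj c1
    obtain ⟨cb, hcb, rfl⟩ := R.hsurj c2
    obtain ⟨cc, hcc, rfl⟩ := R.hsurj c3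
    have hla0 : la ≠ 0 := by
      rintro rfl
      exact hl0 R.h0
    refine c_sep la hla hla0 ca hca cb hcb cc hcc ?_
    intro i hi
    have h2 := congrFun e1 ⟨i, hi⟩
    simp only [toV, Pi.smul_apply, Pi.add_apply, smul_eq_mul] at h2
    obtain ⟨b1, b2, b3, b4⟩ := c_bd.2 i hi
    apply R.hinj _ _ (c_bd.1 _ hla _ b1).2
      (c_bd.1 _ (c_bd.1 _ (c_bd.1 _ hca _ b2).2 _ (c_bd.1 _ hcb _ b3).2).1 _ (c_bd.1 _ hcc _ b4).2).1
    rw [R.hmul, R.hadd, R.hadd, R.hmul, R.hmul, R.hmul]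
    exact h2

/-- Transport along a conjugation. -/
theorem conj_equiv {G : Type*} [Group G] (a : G) (H H' : Subgroup G) (h : ∀ g, g ∈ H ↔ a * g * a⁻¹ ∈ H') :
    Nonempty (H ≃* H') := by
  refine ⟨{ toFun := fun g => ⟨a * g.1 * a⁻¹, (h _).1 g.2⟩
            invFun := fun g => ⟨a⁻¹ * g.1 * a, (h _).2 (by
              have e : a * (a⁻¹ * g.1 * a) * a⁻¹ = g.1 := by group
              rw [e]
              exact g.2)⟩
            left_inv := fun g => Subtype.ext (by simp [mul_assoc])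
            right_inv := fun g => Subtype.ext (by simp [mul_assoc])
            map_mul' := fun x y => Subtype.ext (by simp [mul_assoc]) }⟩

/-- The theorem. -/
theorem main_u62 (v w : ↥leechLattice) (hv : sqNorm v.1 = 32) (hw : sqNorm w.1 = 32) (hd : dotInt v.1 w.1 = -16)
    (F : Type) [Field F] [Fintype F] (hF : Fintype.card F = 4) :
    Nonempty (↥(MulAction.stabilizer ↥Co0 v ⊓ MulAction.stabilizer ↥Co0 w) ≃* Cfsg.PSU 6 F 2) := by
  obtain ⟨a, h1, h2⟩ := pair_trans_a v w bV bZ hv hw bV_norm bZ_norm hd bVZ_dot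
  obtain ⟨e⟩ := iso_std (F := F) hF
  obtain ⟨e'⟩ := conj_equiv a (MulAction.stabilizer ↥Co0 v ⊓ MulAction.stabilizer ↥Co0 w) (Fx cKL) (by
    intro g
    have key : ∀ {p q : ↥leechLattice}, a • p = q → ((a * g * a⁻¹) • q = q ↔ g • p = p) := by
      intro p q hq
      subst hq
      simp only [mul_smul, inv_smul_smul]
      exact smul_left_cancel_iff a
    rw [mem_K_iff]
    constructor
    · rintro ⟨a1, a2⟩
      exact ⟨(key h1).2 a1, (key h2).2 a2⟩
    · rintro ⟨b1, b2⟩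
      exact ⟨(key h1).1 b1, (key h2).1 b2⟩)
  exact ⟨e'.trans e⟩

end Cfsg.Agent.Lib.U62M
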